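import Cfsg.Agent.Lib.SteinbergPres.SLn

/-!
Central extensions of a group with Steinberg's relations of type `A_{n-1}` carry such relations: the
universality of the Steinberg group over a finite field, apart from the small exceptions.
-/

set_option autoImplicit false

namespace Cfsg.Agent.Lib.SteinbergPres

namespace Steinberg

variable {ι : Type*} {K : Type*} [Field K] {G : Type*} [Group G] (X : Steinberg ι K G)
  {E : Type*} [Group E] {π : E →* G} (hπ : Function.Surjective π) (hc : π.ker ≤ Subgroup.center E)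


theorem comm_eq_of_kill {f : K → K → E} (h1 : ∀ t t' u, f (t + t') u = f t u * f t' u) {a : K}
    (ha : a ≠ 1) (hinv : ∀ t u, f (a * t) u = f t u) (t u : K) : f t u = 1 := by
  have h := h1 (a * (t / (a - 1))) (-(t / (a - 1))) u
  have e : a * (t / (a - 1)) + -(t / (a - 1)) = t := by
    rw [← sub_eq_add_neg, ← sub_one_mul, mul_div_cancel₀ _ (sub_ne_zero.2 ha)]
  have h0 : f 0 u = 1 := by
    have := h1 0 0 u
    rwa [add_zero, eq_comm, mul_eq_left] at this
  rw [e, hinv] at h
  rw [h, ← h1, add_neg_cancel, h0]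

include hc in
theorem cker {z : E} (hz : π z = 1) (y : E) : z * y = y * z :=
  (Subgroup.mem_center_iff.1 (hc (MonoidHom.mem_ker.2 hz)) y).symm

include hc in
theorem ccongr {a b a' b' : E} (ha : π a = π a') (hb : π b = π b') :
    a * b * a⁻¹ * b⁻¹ = a' * b' * a'⁻¹ * b'⁻¹ := by
  obtain ⟨z, hz, rfl⟩ : ∃ z, π z = 1 ∧ a = a' * z := ⟨a'⁻¹ * a, by simp [ha], by group⟩
  obtain ⟨w, hw, rfl⟩ : ∃ w, π w = 1 ∧ b = b' * w := ⟨b'⁻¹ * b, by simp [hb], by group⟩
  calc a' * z * (b' * w) * (a' * z)⁻¹ * (b' * w)⁻¹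
      = a' * (z * b') * (w * z⁻¹) * a'⁻¹ * w⁻¹ * b'⁻¹ := by group
    _ = a' * b' * (z * w * z⁻¹ * (a'⁻¹ * w⁻¹)) * b'⁻¹ := by rw [cker hc hz b']; group
    _ = a' * b' * (w * (a'⁻¹ * w⁻¹)) * b'⁻¹ := by rw [cker hc hz w]; group
    _ = _ := by rw [cker hc hw (a'⁻¹ * w⁻¹)]; group

include hπ hc in
/-- lifts of commuting elementary elements commute if one is a commutator of elements commuting with the other -/
theorem commute_of_split {i j k l m : ι} (hij : i ≠ j) (hkl : k ≠ l) (hil : i ≠ l) (hjk : j ≠ k)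
    (hmk : m ≠ k) (hml : m ≠ l) (hmi : m ≠ i) (hmj : m ≠ j) {p q : E} {t u : K}
    (hp : π p = X.x i j t) (hq : π q = X.x k l u) : Commute p q := by
  obtain ⟨a, ha⟩ := hπ (X.x k m u)
  obtain ⟨b, hb⟩ := hπ (X.x m l 1)
  have hab : π (a * b * a⁻¹ * b⁻¹) = X.x k l u := by
    rw [map_mul, map_mul, map_mul, map_inv, map_inv, ha, hb, X.chain hmk.symm hml hkl, mul_one]
  have hcm : p * (a * b * a⁻¹ * b⁻¹) * p⁻¹ = a * b * a⁻¹ * b⁻¹ := by
    calc p * (a * b * a⁻¹ * b⁻¹) * p⁻¹
        = (p * a * p⁻¹) * (p * b * p⁻¹) * (p * a * p⁻¹)⁻¹ * (p * b * p⁻¹)⁻¹ := by group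
      _ = _ := ccongr hc
        (by rw [map_mul, map_mul, map_inv, hp, ha, X.comm hij hmk.symm hmi.symm hjk, mul_inv_cancel_right])
        (by rw [map_mul, map_mul, map_inv, hp, hb, X.comm hij hml hil hmj.symm, mul_inv_cancel_right])
  obtain ⟨z, hz, rfl⟩ : ∃ z, π z = 1 ∧ q = a * b * a⁻¹ * b⁻¹ * z :=
    ⟨(a * b * a⁻¹ * b⁻¹)⁻¹ * q, by rw [map_mul, map_inv, hab, hq, inv_mul_cancel], by group⟩
  exact (show Commute p (a * b * a⁻¹ * b⁻¹) from mul_inv_eq_iff_eq_mul.1 hcm).mul_right (cker hc hz p).symm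

include hπ hc in
/-- the commutator of lifts of commuting elementary elements is biadditive -/
theorem exists_form {i j k l : ι} (hij : i ≠ j) (hkl : k ≠ l) (hil : i ≠ l) (hjk : j ≠ k) :
    ∃ f : K → K → E, (∀ t t' u, f (t + t') u = f t u * f t' u) ∧
      (∀ t u u', f t (u + u') = f t u * f t u') ∧
      (∀ t u a b, π a = X.x i j t → π b = X.x k l u → a * b * a⁻¹ * b⁻¹ = f t u) ∧
      ∀ e t u a b, π a = π e * X.x i j t * (π e)⁻¹ → π b = π e * X.x k l u * (π e)⁻¹ →
        a * b * a⁻¹ * b⁻¹ = f t u := by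
  let L := Function.surjInv hπ
  have hL : ∀ g, π (L g) = g := Function.surjInv_eq hπ
  let f : K → K → E := fun t u => L (X.x i j t) * L (X.x k l u) * (L (X.x i j t))⁻¹ * (L (X.x k l u))⁻¹
  have hker : ∀ t u, π (f t u) = 1 := fun t u => by
    simp only [f, map_mul, map_inv, hL]
    rw [X.comm hij hkl hil hjk]; group
  have hz := fun t u y => cker hc (hker t u) y
  have hval : ∀ t u a b, π a = X.x i j t → π b = X.x k l u → a * b * a⁻¹ * b⁻¹ = f t u := fun t u a b ha hb =>
    ccongr hc (by rw [ha, hL]) (by rw [hb, hL])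
  refine ⟨f, fun t t' u => ?_, fun t u u' => ?_, hval, fun e t u a b ha hb => ?_⟩
  · rw [← hval (t + t') u (L (X.x i j t) * L (X.x i j t')) (L (X.x k l u))
      (by rw [map_mul, hL, hL, X.add hij]) (hL _)]
    calc L (X.x i j t) * L (X.x i j t') * L (X.x k l u) * (L (X.x i j t) * L (X.x i j t'))⁻¹ * (L (X.x k l u))⁻¹
        = L (X.x i j t) * (f t' u * L (X.x k l u)) * (L (X.x i j t))⁻¹ * (L (X.x k l u))⁻¹ := by
          simp only [f]; group
      _ = L (X.x i j t) * L (X.x k l u) * (f t' u * ((L (X.x i j t))⁻¹ * (L (X.x k l u))⁻¹)) := by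
          rw [hz t' u (L (X.x k l u))]; group
      _ = _ := by rw [hz]; simp only [f]; group
  · rw [← hval t (u + u') (L (X.x i j t)) (L (X.x k l u) * L (X.x k l u')) (hL _)
      (by rw [map_mul, hL, hL, X.add hkl])]
    calc L (X.x i j t) * (L (X.x k l u) * L (X.x k l u')) * (L (X.x i j t))⁻¹ * (L (X.x k l u) * L (X.x k l u'))⁻¹
        = f t u * (L (X.x k l u) * f t u' * (L (X.x k l u))⁻¹) := by simp only [f]; group
      _ = _ := by rw [← hz]; simp only [f]; group
  · rw [ccongr hc (a' := e * L (X.x i j t) * e⁻¹) (b' := e * L (X.x k l u) * e⁻¹)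
      (by rw [ha, map_mul, map_mul, map_inv, hL]) (by rw [hb, map_mul, map_mul, map_inv, hL])]
    calc _ = e * f t u * e⁻¹ := by simp only [f]; group
      _ = f t u := by rw [← hz]; group

include hπ hc in
/-- lifts commute when some element scales one factor only -/
theorem commute_of_scale {i j k l : ι} (hij : i ≠ j) (hkl : k ≠ l) (hil : i ≠ l) (hjk : j ≠ k) {g : G} {a : K}
    (ha : a ≠ 1) (hga : ∀ t, g * X.x i j t * g⁻¹ = X.x i j (a * t))
    (hgb : ∀ u, g * X.x k l u * g⁻¹ = X.x k l u) {p q : E} {t u : K}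
    (hp : π p = X.x i j t) (hq : π q = X.x k l u) : Commute p q := by
  obtain ⟨f, h1, -, hval, hconj⟩ := X.exists_form hπ hc hij hkl hil hjk
  have hf : f t u = 1 := by
    refine comm_eq_of_kill h1 ha (fun t u => ?_) t u
    obtain ⟨e, he⟩ := hπ g
    obtain ⟨y, hy⟩ := hπ (X.x i j (a * t))
    obtain ⟨z, hz⟩ := hπ (X.x k l u)
    rw [← hval _ _ y z hy hz]
    exact hconj e t u y z (by rw [he, hga, hy]) (by rw [he, hgb, hz])
  rw [← hval t u p q hp hq, mul_inv_eq_one, mul_inv_eq_iff_eq_mul] at hf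
  exact hf

include hπ hc in
/-- lifts commute when some element exchanges the factors, in characteristic three -/
theorem commute_of_exchange {i j k l : ι} (hij : i ≠ j) (hkl : k ≠ l) (hil : i ≠ l) (hjk : j ≠ k)
    (h3 : (3 : K) = 0) (hprime : ∀ t : K, ∃ n : ℕ, (n : K) = t) {g : G}
    (hga : g * X.x i j 1 * g⁻¹ = X.x k l 1) (hgb : g * X.x k l 1 * g⁻¹ = X.x i j 1) {p q : E} {t u : K}
    (hp : π p = X.x i j t) (hq : π q = X.x k l u) : Commute p q := by
  obtain ⟨f, h1, h2, hval, hconj⟩ := X.exists_form hπ hc hij hkl hil hjk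
  obtain ⟨e, he⟩ := hπ g
  obtain ⟨y, hy⟩ := hπ (X.x i j 1)
  obtain ⟨z, hz⟩ := hπ (X.x k l 1)
  have hA : z * y * z⁻¹ * y⁻¹ = f 1 1 := hconj e 1 1 z y (by rw [he, hga, hz]) (by rw [he, hgb, hy])
  have hB : y * z * y⁻¹ * z⁻¹ = f 1 1 := hval 1 1 y z hy hz
  have hsq : f 1 1 * f 1 1 = 1 := by
    conv_lhs => arg 1; rw [← hA]
    rw [← hB]; group
  have z1 : ∀ u, f 0 u = 1 := fun u => by
    have := h1 0 0 u
    rwa [add_zero, eq_comm, mul_eq_left] at this
  have z2 : ∀ t, f t 0 = 1 := fun t => by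
    have := h2 t 0 0
    rwa [add_zero, eq_comm, mul_eq_left] at this
  have a1 : ∀ n u, f ((n : ℕ) : K) u = f 1 u ^ n := fun n u => by
    induction n with
    | zero => simp [z1]
    | succ n ih => rw [pow_succ, ← ih, Nat.cast_succ, h1]
  have a2 : ∀ m : ℕ, f 1 (m : K) = f 1 1 ^ m := fun m => by
    induction m with
    | zero => simp [z2]
    | succ m ih => rw [pow_succ, ← ih, Nat.cast_succ, h2]
  have h11 : f 1 1 = 1 := by
    have h := a1 3 1
    rw [Nat.cast_ofNat, h3, z1] at h
    calc f 1 1 = f 1 1 ^ 3 * (f 1 1 * f 1 1)⁻¹ := by group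
      _ = 1 := by rw [← h, hsq]; group
  obtain ⟨n, rfl⟩ := hprime t
  obtain ⟨m, rfl⟩ := hprime u
  have hf : f (n : K) (m : K) = 1 := by rw [a1, a2, h11, one_pow, one_pow]
  rw [← hval _ _ p q hp hq, mul_inv_eq_one, mul_inv_eq_iff_eq_mul] at hf
  exact hf


theorem exists_cube_ne_one [Fintype K] (h2 : Fintype.card K ≠ 2) (h4 : Fintype.card K ≠ 4) :
    ∃ s : K, s ≠ 0 ∧ s ^ 3 ≠ 1 := by
  classical
  by_contra h
  push Not at h
  have hsub : (Finset.univ : Finset K) ⊆ insert 0 (Polynomial.nthRootsFinset 3 (1 : K)) := fun x _ => by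
    by_cases hx : x = 0
    · simp [hx]
    · exact Finset.mem_insert_of_mem ((Polynomial.mem_nthRootsFinset (by norm_num) _).2 (h x hx))
  have h1 := (Finset.card_le_card hsub).trans (Finset.card_insert_le _ _)
  rw [Finset.card_univ] at h1
  have h3 : (Polynomial.nthRootsFinset 3 (1 : K)).card ≤ 3 := by
    rw [Polynomial.nthRootsFinset_def]
    exact (Multiset.toFinset_card_le _).trans (Polynomial.card_nthRoots 3 1)
  have := Fintype.one_lt_card (α := K)
  have h3' : Fintype.card K = 3 := by omega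
  obtain ⟨k, hk0, hk1⟩ : ∃ k : K, k ≠ 0 ∧ k ≠ 1 := by
    by_contra h'
    push Not at h'
    have hs : (Finset.univ : Finset K) ⊆ {0, 1} := fun x _ => by
      by_cases hx : x = 0
      · simp [hx]
      · simp [h' x hx]
    have := (Finset.card_le_card hs).trans Finset.card_le_two
    rw [Finset.card_univ, h3'] at this
    omega
  have e1 := h k hk0
  have e2 := FiniteField.pow_card_sub_one_eq_one k hk0
  rw [h3'] at e2
  exact hk1 (by rw [pow_succ, e2, one_mul] at e1; exact e1)

include hπ hc in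
/-- lifts of commuting elementary elements commute -/
theorem lift_commute [Fintype K] [Fintype ι] (h3 : Fintype.card ι = 3 → Fintype.card K ≠ 2 ∧ Fintype.card K ≠ 4)
    (h4 : Fintype.card ι = 4 → Fintype.card K ≠ 2) {i j k l : ι} (hij : i ≠ j) (hkl : k ≠ l) (hil : i ≠ l)
    (hjk : j ≠ k) {p q : E} {t u : K} (hp : π p = X.x i j t) (hq : π q = X.x k l u) : Commute p q := by
  classical
  by_cases hm : ∃ m, m ≠ k ∧ m ≠ l ∧ m ≠ i ∧ m ≠ j
  · obtain ⟨m, m1, m2, m3, m4⟩ := hm
    exact X.commute_of_split hπ hc hij hkl hil hjk m1 m2 m3 m4 hp hq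
  push Not at hm
  have hsub : (Finset.univ : Finset ι) ⊆ {k, l, i, j} := fun m _ => by
    simp only [Finset.mem_insert, Finset.mem_singleton]
    by_contra h
    push Not at h
    exact h.2.2.2 (hm m h.1 h.2.1 h.2.2.1)
  have hcard : Fintype.card ι ≤ ({k, l, i, j} : Finset ι).card := by
    simpa using Finset.card_le_card hsub
  by_cases hki : k = i
  · subst hki
    have hjl : j ≠ l := by
      intro e
      subst e
      obtain ⟨m, m1, m2⟩ := X.three k j
      exact m2 (hm m m1 m2 m1)
    obtain ⟨c2, c4⟩ := h3 (le_antisymm (hcard.trans (by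
      rw [Finset.insert_eq_of_mem (show k ∈ ({l, k, j} : Finset ι) by simp)]
      exact Finset.card_le_three)) (by
        have := Finset.card_le_univ ({k, j, l} : Finset ι)
        rwa [Finset.card_insert_of_notMem (by simp [hij, hkl]), Finset.card_pair hjl] at this))
    obtain ⟨s, hs0, hs3⟩ := exists_cube_ne_one (K := K) c2 c4
    refine X.commute_of_scale hπ hc hij hkl hil hjk (g := X.h hij (s ^ 2) * X.h hkl s⁻¹) hs3
      (fun t => ?_) (fun u => ?_) hp hq
    · calc X.h hij (s ^ 2) * X.h hkl s⁻¹ * X.x k j t * (X.h hij (s ^ 2) * X.h hkl s⁻¹)⁻¹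
          = X.h hij (s ^ 2) * (X.h hkl s⁻¹ * X.x k j t * (X.h hkl s⁻¹)⁻¹) * (X.h hij (s ^ 2))⁻¹ := by group
        _ = X.x k j ((s ^ 2) ^ 2 * (s⁻¹ * t)) := by
          rw [X.h_ak hkl hij hjl.symm (inv_ne_zero hs0)]
          exact (X.rk hij).h_conj_x (pow_ne_zero _ hs0) _
        _ = _ := by congr 1; field_simp
    · calc X.h hij (s ^ 2) * X.h hkl s⁻¹ * X.x k l u * (X.h hij (s ^ 2) * X.h hkl s⁻¹)⁻¹
          = X.h hij (s ^ 2) * (X.h hkl s⁻¹ * X.x k l u * (X.h hkl s⁻¹)⁻¹) * (X.h hij (s ^ 2))⁻¹ := by group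
        _ = X.x k l (s ^ 2 * (s⁻¹ ^ 2 * u)) := by
          rw [show X.h hkl s⁻¹ * X.x k l u * (X.h hkl s⁻¹)⁻¹ = X.x k l (s⁻¹ ^ 2 * u) from
            (X.rk hkl).h_conj_x (inv_ne_zero hs0) u, X.h_ak hij hkl hjl (pow_ne_zero _ hs0)]
        _ = _ := by congr 1; field_simp
  by_cases hlj : l = j
  · subst hlj
    obtain ⟨c2, c4⟩ := h3 (le_antisymm (hcard.trans (by
      rw [show ({k, l, i, l} : Finset ι) = {k, l, i} by ext x; simp; tauto]
      exact Finset.card_le_three)) (by
        have := Finset.card_le_univ ({i, k, l} : Finset ι)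
        rwa [Finset.card_insert_of_notMem (by simp [hij, Ne.symm hki]), Finset.card_pair hkl] at this))
    obtain ⟨s, hs0, hs3⟩ := exists_cube_ne_one (K := K) c2 c4
    refine X.commute_of_scale hπ hc hij hkl hil hjk (g := X.h hij (s ^ 2) * X.h hkl s⁻¹) hs3
      (fun t => ?_) (fun u => ?_) hp hq
    · calc X.h hij (s ^ 2) * X.h hkl s⁻¹ * X.x i l t * (X.h hij (s ^ 2) * X.h hkl s⁻¹)⁻¹
          = X.h hij (s ^ 2) * (X.h hkl s⁻¹ * X.x i l t * (X.h hkl s⁻¹)⁻¹) * (X.h hij (s ^ 2))⁻¹ := by group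
        _ = X.x i l ((s ^ 2) ^ 2 * (s⁻¹ * t)) := by
          rw [X.h_kb hkl (Ne.symm hki) hil (inv_ne_zero hs0)]
          exact (X.rk hij).h_conj_x (pow_ne_zero _ hs0) _
        _ = _ := by congr 1; field_simp
    · calc X.h hij (s ^ 2) * X.h hkl s⁻¹ * X.x k l u * (X.h hij (s ^ 2) * X.h hkl s⁻¹)⁻¹
          = X.h hij (s ^ 2) * (X.h hkl s⁻¹ * X.x k l u * (X.h hkl s⁻¹)⁻¹) * (X.h hij (s ^ 2))⁻¹ := by group
        _ = X.x k l (s ^ 2 * (s⁻¹ ^ 2 * u)) := by
          rw [show X.h hkl s⁻¹ * X.x k l u * (X.h hkl s⁻¹)⁻¹ = X.x k l (s⁻¹ ^ 2 * u) from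
            (X.rk hkl).h_conj_x (inv_ne_zero hs0) u, X.h_kb hij hki hkl (pow_ne_zero _ hs0)]
        _ = _ := by congr 1; field_simp
  -- the disjoint case in degree four
  have hd : ({k, l, i, j} : Finset ι).card = 4 := by
    rw [Finset.card_insert_of_notMem (by simp [hkl, hki, Ne.symm hjk]),
      Finset.card_insert_of_notMem (by simp [Ne.symm hil, hlj]), Finset.card_pair hij]
  have c2 := h4 (le_antisymm (hcard.trans hd.le) (hd ▸ Finset.card_le_univ _))
  by_cases hK3 : Fintype.card K = 3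
  · have h30 : (3 : K) = 0 := by
      have h := Nat.cast_card_eq_zero K
      rwa [hK3, Nat.cast_ofNat] at h
    have hm1 : (-1 : K) ≠ 1 := fun h => one_ne_zero (α := K) (by linear_combination h30 + h)
    have hprime : ∀ t : K, ∃ n : ℕ, (n : K) = t := by
      intro t
      have h01 : ({0, 1, -1} : Finset K) = Finset.univ := Finset.eq_univ_of_card _ (by
        rw [hK3, Finset.card_insert_of_notMem (by simp), Finset.card_pair (Ne.symm hm1)])
      have ht : t ∈ ({0, 1, -1} : Finset K) := by rw [h01]; exact Finset.mem_univ t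
      simp only [Finset.mem_insert, Finset.mem_singleton] at ht
      rcases ht with rfl | rfl | rfl
      · exact ⟨0, Nat.cast_zero⟩
      · exact ⟨1, Nat.cast_one⟩
      · exact ⟨2, by push_cast; linear_combination h30⟩
    have hik : i ≠ k := Ne.symm hki
    have hjl : j ≠ l := Ne.symm hlj
    refine X.commute_of_exchange hπ hc hij hkl hil hjk h30 hprime (g := X.w i k 1 * X.w j l 1) ?_ ?_ hp hq
    · calc X.w i k 1 * X.w j l 1 * X.x i j 1 * (X.w i k 1 * X.w j l 1)⁻¹
          = X.w i k 1 * (X.w j l 1 * X.x i j 1 * (X.w j l 1)⁻¹) * (X.w i k 1)⁻¹ := by group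
        _ = _ := by
          rw [X.w_ka hjl hij hil one_ne_zero, X.w_ak hik hil hkl one_ne_zero]
          congr 1
          rw [inv_one]; ring
    · calc X.w i k 1 * X.w j l 1 * X.x k l 1 * (X.w i k 1 * X.w j l 1)⁻¹
          = X.w i k 1 * (X.w j l 1 * X.x k l 1 * (X.w j l 1)⁻¹) * (X.w i k 1)⁻¹ := by group
        _ = _ := by
          rw [X.w_kb hjl hjk.symm hkl one_ne_zero, X.w_bk hik hij hjk.symm one_ne_zero]
          congr 1
          rw [inv_one]; ring
  · obtain ⟨s, hs0, hs2⟩ : ∃ s : K, s ≠ 0 ∧ s ^ 2 ≠ 1 := by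
      by_contra h
      push Not at h
      have hsub : (Finset.univ : Finset K) ⊆ {0, 1, -1} := fun x _ => by
        simp only [Finset.mem_insert, Finset.mem_singleton]
        by_cases hx : x = 0
        · exact Or.inl hx
        · exact Or.inr (sq_eq_one_iff.1 (h x hx))
      have := (Finset.card_le_card hsub).trans Finset.card_le_three
      rw [Finset.card_univ] at this
      have := Fintype.one_lt_card (α := K)
      omega
    refine X.commute_of_scale hπ hc hij hkl hil hjk
      (g := X.h (Ne.symm hki) s * X.h hil s) hs2 (fun t => ?_) (fun u => ?_) hp hq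
    · calc X.h (Ne.symm hki) s * X.h hil s * X.x i j t * (X.h (Ne.symm hki) s * X.h hil s)⁻¹
          = X.h (Ne.symm hki) s * (X.h hil s * X.x i j t * (X.h hil s)⁻¹) * (X.h (Ne.symm hki) s)⁻¹ := by group
        _ = X.x i j (s * (s * t)) := by
          rw [X.h_ak hil hij hlj hs0, X.h_ak (Ne.symm hki) hij hjk.symm hs0]
        _ = _ := by congr 1; ring
    · calc X.h (Ne.symm hki) s * X.h hil s * X.x k l u * (X.h (Ne.symm hki) s * X.h hil s)⁻¹
          = X.h (Ne.symm hki) s * (X.h hil s * X.x k l u * (X.h hil s)⁻¹) * (X.h (Ne.symm hki) s)⁻¹ := by group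
        _ = X.x k l (s⁻¹ * (s * u)) := by
          rw [X.h_kb hil hki hkl hs0, X.h_bk (Ne.symm hki) hil hkl hs0]
        _ = _ := by congr 1; field_simp

include hπ hc in
/-- a central extension carries the relations -/
theorem exists_lift [Fintype K] [Fintype ι] (h3 : Fintype.card ι = 3 → Fintype.card K ≠ 2 ∧ Fintype.card K ≠ 4)
    (h4 : Fintype.card ι = 4 → Fintype.card K ≠ 2) :
    ∃ Y : Steinberg ι K E, ∀ i j, i ≠ j → ∀ t, π (Y.x i j t) = X.x i j t := by
  classical
  have hcom : ∀ {i j k l : ι}, i ≠ j → k ≠ l → i ≠ l → j ≠ k → ∀ {p q : E} {t u : K},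
      π p = X.x i j t → π q = X.x k l u → Commute p q := fun hij hkl hil hjk _ _ _ _ hp hq =>
    X.lift_commute hπ hc h3 h4 hij hkl hil hjk hp hq
  let L := Function.surjInv hπ
  have hL : ∀ g, π (L g) = g := Function.surjInv_eq hπ
  let P : ι → ι → ι → K → K → E := fun i j l t u =>
    L (X.x i j t) * L (X.x j l u) * (L (X.x i j t))⁻¹ * (L (X.x j l u))⁻¹
  have hval : ∀ i j l t u a b, π a = X.x i j t → π b = X.x j l u → a * b * a⁻¹ * b⁻¹ = P i j l t u :=
    fun i j l t u a b ha hb => ccongr hc (by rw [ha, hL]) (by rw [hb, hL])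
  have hπP : ∀ i j l, i ≠ j → j ≠ l → i ≠ l → ∀ t u, π (P i j l t u) = X.x i l (t * u) := fun i j l a b c t u => by
    simp only [P, map_mul, map_inv, hL]
    exact X.chain a b c t u
  have hP1 : ∀ i j l, i ≠ j → j ≠ l → i ≠ l → ∀ t t' u, P i j l (t + t') u = P i j l t u * P i j l t' u := by
    intro i j l a b c t t' u
    rw [← hval i j l (t + t') u (L (X.x i j t) * L (X.x i j t')) (L (X.x j l u))
      (by rw [map_mul, hL, hL, X.add a]) (hL _)]
    have h1 : Commute (L (X.x i j t)) (P i j l t' u) := hcom a c c a.symm (hL _) (hπP i j l a b c t' u)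
    have h2 : Commute (P i j l t' u) (P i j l t u) :=
      hcom c c c (Ne.symm c) (hπP i j l a b c t' u) (hπP i j l a b c t u)
    calc L (X.x i j t) * L (X.x i j t') * L (X.x j l u) * (L (X.x i j t) * L (X.x i j t'))⁻¹ * (L (X.x j l u))⁻¹
        = L (X.x i j t) * P i j l t' u * L (X.x j l u) * (L (X.x i j t))⁻¹ * (L (X.x j l u))⁻¹ := by
          simp only [P]; group
      _ = P i j l t' u * P i j l t u := by rw [h1.eq]; simp only [P]; group
      _ = _ := h2.eq
  have hP2 : ∀ i j l, i ≠ j → j ≠ l → i ≠ l → ∀ t u u', P i j l t (u + u') = P i j l t u * P i j l t u' := by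
    intro i j l a b c t u u'
    rw [← hval i j l t (u + u') (L (X.x i j t)) (L (X.x j l u) * L (X.x j l u')) (hL _)
      (by rw [map_mul, hL, hL, X.add b])]
    have h1 : Commute (P i j l t u') (L (X.x j l u)) := hcom c b c (Ne.symm b) (hπP i j l a b c t u') (hL _)
    calc L (X.x i j t) * (L (X.x j l u) * L (X.x j l u')) * (L (X.x i j t))⁻¹ * (L (X.x j l u) * L (X.x j l u'))⁻¹
        = P i j l t u * (L (X.x j l u) * P i j l t u' * (L (X.x j l u))⁻¹) := by simp only [P]; group
      _ = _ := by rw [← h1.eq]; group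
  have hassoc : ∀ i j k l, i ≠ j → i ≠ k → i ≠ l → j ≠ k → j ≠ l → k ≠ l → ∀ t v w,
      P i j l t (v * w) = P i k l (t * v) w := by
    intro i j k l ij ik il jk jl kl t v w
    set a := L (X.x i j t) with ha
    set b := L (X.x j k v) with hb
    set c := L (X.x k l w) with hc'
    have hac : Commute a c := hcom ij kl il jk (hL _) (hL _)
    set d := a * b * a⁻¹ * b⁻¹ with hd
    set e := b * c * b⁻¹ * c⁻¹ with he
    have hπd : π d = X.x i k (t * v) := hπP i j k ij jk ik t v
    have hπe : π e = X.x j l (v * w) := hπP j k l jk kl jl v w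
    rw [← hval i j l t (v * w) a e (hL _) hπe, ← hval i k l (t * v) w d c hπd (hL _)]
    have hde : Commute d e := hcom ik jl il (Ne.symm jk) hπd hπe
    have hπdc : π (d * c * d⁻¹ * c⁻¹) = X.x i l (t * v * w) := by
      rw [map_mul, map_mul, map_mul, map_inv, map_inv, hπd, show π c = X.x k l w from hL _, X.chain ik kl il]
    have he' : Commute (d * c * d⁻¹ * c⁻¹) e := hcom il jl il (Ne.symm jl) hπdc hπe
    calc a * e * a⁻¹ * e⁻¹
        = (a * b * a⁻¹) * (a * c * a⁻¹) * (a * b * a⁻¹)⁻¹ * (a * c * a⁻¹)⁻¹ * e⁻¹ := by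
          simp only [he]; group
      _ = d * e * d⁻¹ * (d * c * d⁻¹ * c⁻¹) * e⁻¹ := by
          rw [show a * c * a⁻¹ = c by rw [hac.eq]; group]
          simp only [hd, he]; group
      _ = (d * c * d⁻¹ * c⁻¹) := by rw [hde.eq, mul_inv_cancel_right, ← he'.eq, mul_inv_cancel_right]
  choose o ho1 ho2 using fun i l => X.three i l
  have hkey : ∀ i j l, i ≠ j → j ≠ l → i ≠ l → ∀ t u, P i j l t u = P i (o i l) l 1 (t * u) := by
    intro i j l a b c t u
    by_cases hn : Fintype.card ι = 3
    · have hjo : o i l = j := by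
        by_contra hne
        have := Finset.card_le_univ ({i, j, l, o i l} : Finset ι)
        rw [Finset.card_insert_of_notMem (by simp [a, c, (ho1 i l).symm]),
          Finset.card_insert_of_notMem (by simp [b, Ne.symm hne]), Finset.card_pair (ho2 i l).symm, hn] at this
        omega
      rw [hjo]
      obtain ⟨c2, c4⟩ := h3 hn
      obtain ⟨s, hs0, hs3⟩ := exists_cube_ne_one (K := K) c2 c4
      let C : K → K → E := fun t u => P i j l t u * (P i j l 1 (t * u))⁻¹
      have hker : ∀ t u, π (C t u) = 1 := fun t u => by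
        simp only [C, map_mul, map_inv, hπP i j l a b c, one_mul, mul_inv_cancel]
      obtain ⟨e, he⟩ := hπ (X.h a s * X.h c s)
      have hconj : ∀ t u, e * P i j l t u * e⁻¹ = P i j l (s ^ 3 * t) u := by
        intro t u
        rw [← hval i j l (s ^ 3 * t) u (e * L (X.x i j t) * e⁻¹) (e * L (X.x j l u) * e⁻¹) ?_ ?_]
        · simp only [P]; group
        · rw [map_mul, map_mul, map_inv, he, hL]
          calc X.h a s * X.h c s * X.x i j t * (X.h a s * X.h c s)⁻¹
              = X.h a s * (X.h c s * X.x i j t * (X.h c s)⁻¹) * (X.h a s)⁻¹ := by group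
            _ = X.x i j (s ^ 2 * (s * t)) := by
              rw [X.h_ak c a b.symm hs0]; exact (X.rk a).h_conj_x hs0 _
            _ = _ := by congr 1; ring
        · rw [map_mul, map_mul, map_inv, he, hL]
          calc X.h a s * X.h c s * X.x j l u * (X.h a s * X.h c s)⁻¹
              = X.h a s * (X.h c s * X.x j l u * (X.h c s)⁻¹) * (X.h a s)⁻¹ := by group
            _ = X.x j l (s⁻¹ * (s * u)) := by
              rw [X.h_kb c a.symm b hs0, X.h_bk a c b hs0]
            _ = _ := by congr 1; field_simp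
      set x := s ^ 3
      have hrel : ∀ t u, P i j l t u * (P i j l 1 (t * u))⁻¹ = P i j l (x * t) u * (P i j l x (t * u))⁻¹ := by
        intro t u
        calc P i j l t u * (P i j l 1 (t * u))⁻¹
            = e * (P i j l t u * (P i j l 1 (t * u))⁻¹) * e⁻¹ := by
              rw [← cker hc (hker t u) e]; simp only [C]; group
          _ = (e * P i j l t u * e⁻¹) * (e * P i j l 1 (t * u) * e⁻¹)⁻¹ := by group
          _ = _ := by rw [hconj, hconj, mul_one]
      have hC : ∀ t u, C (x * t) u = C x (t * u) * C t u := by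
        intro t u
        have h := cker hc (hker t u) (C x (t * u))
        rw [← h]
        have hCx : C x (t * u) = P i j l x (t * u) * (P i j l 1 (x * t * u))⁻¹ := by
          simp only [C, mul_assoc]
        have hC0 : C t u = P i j l (x * t) u * (P i j l x (t * u))⁻¹ := by simp only [C]; exact hrel t u
        rw [hCx, hC0]
        simp only [C]
        group
      have hC1 : ∀ t t' u, C (t + t') u = C t u * C t' u := by
        intro t t' u
        have e1 : P i j l 1 ((t + t') * u) = P i j l 1 (t' * u) * P i j l 1 (t * u) := by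
          rw [add_mul, add_comm, hP2 i j l a b c]
        simp only [C]
        rw [hP1 i j l a b c, e1, mul_inv_rev]
        have h := cker hc (hker t' u) (P i j l 1 (t * u))⁻¹
        simp only [C] at h
        calc P i j l t u * P i j l t' u * ((P i j l 1 (t * u))⁻¹ * (P i j l 1 (t' * u))⁻¹)
            = P i j l t u * (P i j l t' u * (P i j l 1 (t * u))⁻¹) * (P i j l 1 (t' * u))⁻¹ := by group
          _ = _ := by
            have hcc : Commute (P i j l t' u) (P i j l 1 (t * u)) :=
              hcom c c c (Ne.symm c) (hπP i j l a b c t' u) (hπP i j l a b c 1 (t * u))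
            rw [hcc.inv_right.eq]; group
      have hx1 : x - 1 ≠ 0 := sub_ne_zero.2 hs3
      have z0 : ∀ u, C 1 u = 1 := fun u => by simp [C]
      have hsub : ∀ r u, C ((x - 1) * r) u = C x (r * u) := fun r u => by
        have h := hC1 ((x - 1) * r) r u
        rw [show (x - 1) * r + r = x * r by ring, hC] at h
        exact (mul_right_cancel h).symm
      have hg : ∀ w, C x w = 1 := fun w => by
        have h := hsub (x - 1)⁻¹ ((x - 1) * w)
        rwa [mul_inv_cancel₀ hx1, z0, inv_mul_cancel_left₀ hx1, eq_comm] at h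
      have : C t u = 1 := by
        have h := hsub ((x - 1)⁻¹ * t) u
        rwa [mul_inv_cancel_left₀ hx1, hg] at h
      exact mul_inv_eq_one.1 this
    · have hcard : 4 ≤ Fintype.card ι := by
        have := Finset.card_le_univ ({i, j, l} : Finset ι)
        rw [Finset.card_insert_of_notMem (by simp [a, c]), Finset.card_pair b] at this
        omega
      have hother : ∀ i j l : ι, ∃ k, k ≠ i ∧ k ≠ j ∧ k ≠ l := fun i j l => by
        by_contra hno
        push Not at hno
        have hs : (Finset.univ : Finset ι) ⊆ {i, j, l} := fun k _ => by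
          simp only [Finset.mem_insert, Finset.mem_singleton]
          by_contra h
          push Not at h
          exact h.2.2 (hno k h.1 h.2.1)
        have := (Finset.card_le_card hs).trans Finset.card_le_three
        rw [Finset.card_univ] at this
        omega
      by_cases hjo : j = o i l
      · subst hjo
        obtain ⟨k, k1, k2, k3⟩ := hother i (o i l) l
        have h1 := hassoc i (o i l) k l a k1.symm c k2.symm b k3 t u 1
        have h2 := hassoc i (o i l) k l a k1.symm c k2.symm b k3 1 (t * u) 1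
        rw [mul_one] at h1 h2
        rw [one_mul] at h2
        rw [h1, h2]
      · have h := hassoc i (o i l) j l (ho1 i l).symm a c (Ne.symm hjo) (ho2 i l) b 1 t u
        rw [one_mul] at h
        exact h.symm
  refine ⟨⟨fun i l w => if i = l then 1 else P i (o i l) l 1 w, ?_, ?_, ?_, X.three⟩, ?_⟩
  · intro i l hil t u
    simp only [if_neg hil]
    rw [hP2 i (o i l) l (ho1 i l).symm (ho2 i l) hil]
  · intro i j k l hij hkl hil hjk t u
    simp only [if_neg hij, if_neg hkl]
    refine hcom hij hkl hil hjk (t := t) (u := u) ?_ ?_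
    · rw [hπP i (o i j) j (ho1 i j).symm (ho2 i j) hij, one_mul]
    · rw [hπP k (o k l) l (ho1 k l).symm (ho2 k l) hkl, one_mul]
  · intro i j l hij hjl hil t u
    simp only [if_neg hij, if_neg hjl, if_neg hil]
    rw [← hkey i j l hij hjl hil t u]
    refine hval i j l t u _ _ ?_ ?_
    · rw [hπP i (o i j) j (ho1 i j).symm (ho2 i j) hij, one_mul]
    · rw [hπP j (o j l) l (ho1 j l).symm (ho2 j l) hjl, one_mul]
  · intro i j hij t
    simp only [if_neg hij]
    rw [hπP i (o i j) j (ho1 i j).symm (ho2 i j) hij, one_mul]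

end Steinberg

end Cfsg.Agent.Lib.SteinbergPres
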