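import Cfsg.Prelude.Def_SteinbergCover
import Mathlib

/-!
# The group given by (R1), (R2) is perfect, by certificates

In the abelianization every commutator word is trivial; a certificate is a list of pairs of roots, each
of which kills one or two further root subgroups.
-/

set_option autoImplicit false

namespace Cfsg.Agent.Lib.CoverPerfect

open Cfsg.Lie

/-- `±1` -/
def unitI (c : ℤ) : Bool := c.natAbs == 1

/-- the new roots killed by a list of uncovered terms, if of a usable shape -/
def shape (big : Bool) : List (ℕ × ℤ × ℕ × ℕ) → Option (List ℕ)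
  | [(k, c, i, j)] => if unitI c && (i == 1 || j == 1) then some [k] else none
  | [(k, c, i, j), (l, c', i', j')] =>
    if big && unitI c && unitI c' && i == 1 && j == 1 && ((i' == 2 && j' == 1) || (i' == 1 && j' == 2))
    then some [k, l] else none
  | _ => none

/-- one step of a certificate -/
def step (D : ChevalleyDatum) (big : Bool) (cov : List ℕ) (p : ℕ × ℕ) : List ℕ :=
  if p.1 < D.nroots && p.2 < D.nroots && p.2 != p.1 && p.2 != D.neg p.1 then
    match shape big ((D.commTerms p.1 p.2).filter fun c => !cov.contains c.1) with
    | some l => l ++ cov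
    | none => cov
  else cov

/-- the certificate succeeds -/
def check (D : ChevalleyDatum) (big : Bool) (ps : List (ℕ × ℕ)) : Bool :=
  let cov := ps.foldl (step D big) []
  (List.range D.nroots).all fun r => cov.contains r

variable {K : Type*} [Field K] (D : ChevalleyDatum)

/-- the image of a generator in the abelianization -/
def y (r : ℕ) (t : K) : Abelianization (D.SteinbergCover K) := Abelianization.of (D.scGen K r t)

theorem y_add {r : ℕ} (hr : r < D.nroots) (t u : K) : y D r t * y D r u = y D r (t + u) := by
  have h := PresentedGroup.mk_eq_one_iff (rels := D.steinbergRelsAB K)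
    (x := D.stX r t * D.stX r u * (D.stX r (t + u))⁻¹) |>.mpr
    (Subgroup.subset_normalClosure (Or.inl ⟨r, t, u, hr, rfl⟩))
  rw [map_mul, map_mul, map_inv, mul_inv_eq_one] at h
  rw [y, y, y, ← map_mul]
  exact congrArg Abelianization.of h

theorem y_zero (r : ℕ) : y D r (0 : K) = 1 := by
  by_cases hr : r < D.nroots
  · have := y_add D hr (0 : K) 0
    rwa [add_zero, mul_eq_left] at this
  · rw [y, ChevalleyDatum.scGen, ChevalleyDatum.stX, dif_neg hr, map_one, map_one]

theorem terms_eq_one {r s : ℕ} (hr : r < D.nroots) (hs : s < D.nroots) (hne : s ≠ r) (hneg : s ≠ D.neg r) (t u : K) :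
    ((D.commTerms r s).map fun c => y D c.1 ((c.2.1 : K) * (-t) ^ c.2.2.1 * u ^ c.2.2.2)).prod = 1 := by
  have h := PresentedGroup.mk_eq_one_iff (rels := D.steinbergRelsAB K)
    (x := (D.stX s u)⁻¹ * (D.stX r t)⁻¹ * D.stX s u * D.stX r t * (D.stWord (D.commWord K r s t u))⁻¹) |>.mpr
    (Subgroup.subset_normalClosure (Or.inr ⟨r, s, t, u, hr, hs, hne, hneg, rfl⟩))
  simp only [map_mul, map_inv] at h
  have h2 := congrArg (Abelianization.of (G := D.SteinbergCover K)) h
  simp only [map_mul, map_inv, map_one] at h2
  have h3 : Abelianization.of (PresentedGroup.mk (D.steinbergRelsAB K) (D.stWord (D.commWord K r s t u))) = 1 := by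
    rw [show ∀ a b c : Abelianization (D.SteinbergCover K), a⁻¹ * b⁻¹ * a * b * c⁻¹ = c⁻¹ from fun a b c => by
      rw [mul_comm a⁻¹ b⁻¹, inv_mul_cancel_right, inv_mul_cancel, one_mul]] at h2
    exact inv_eq_one.mp h2
  rw [← h3, ChevalleyDatum.stWord, map_list_prod, map_list_prod, List.map_map, List.map_map, ChevalleyDatum.commWord,
    List.map_map]
  rfl

theorem prod_filter {cov : List ℕ} (hcov : ∀ k ∈ cov, ∀ t : K, y D k t = 1) (f : (ℕ × ℤ × ℕ × ℕ) → K) :
    ∀ l : List (ℕ × ℤ × ℕ × ℕ), (l.map fun c => y D c.1 (f c)).prod =
      ((l.filter fun c => !cov.contains c.1).map fun c => y D c.1 (f c)).prod := by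
  intro l
  induction l with
  | nil => rfl
  | cons c l ih =>
    rw [List.map_cons, List.prod_cons, ih]
    by_cases h : cov.contains c.1 = true
    · rw [List.filter_cons_of_neg (by simp at h ⊢; exact h), hcov c.1 (by simpa using h), one_mul]
    · rw [List.filter_cons_of_pos (by simp at h ⊢; exact h), List.map_cons, List.prod_cons]

theorem unit_cast {c : ℤ} (h : unitI c = true) : (c : K) * (c : K) = 1 := by
  rcases Int.natAbs_eq_iff.1 (by simpa [unitI] using h : c.natAbs = 1) with rfl | rfl <;> norm_num

theorem step_sound {big : Bool} (hbig : big = true → ∃ x : K, x ≠ 0 ∧ x ≠ 1) {cov : List ℕ} (p : ℕ × ℕ)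
    (hcov : ∀ k ∈ cov, k < D.nroots → ∀ t : K, y D k t = 1) :
    ∀ k ∈ step D big cov p, k < D.nroots → ∀ t : K, y D k t = 1 := by
  obtain ⟨r, s⟩ := p
  unfold step
  split
  · rename_i hc
    simp only [Bool.and_eq_true, decide_eq_true_eq, bne_iff_ne] at hc
    obtain ⟨⟨⟨hr, hs⟩, hne⟩, hneg⟩ := hc
    split
    · rename_i l hl
      intro k hk hkn
      rw [List.mem_append] at hk
      rcases hk with hk | hk
      swap
      · exact hcov k hk hkn
      have hcov' : ∀ k ∈ cov, ∀ t : K, y D k t = 1 := by
        intro k hk t
        by_cases hkn : k < D.nroots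
        · exact hcov k hk hkn t
        · rw [y, ChevalleyDatum.scGen, ChevalleyDatum.stX, dif_neg hkn, map_one, map_one]
      have rel : ∀ t u : K, (((D.commTerms r s).filter fun c => !cov.contains c.1).map
          fun c => y D c.1 ((c.2.1 : K) * (-t) ^ c.2.2.1 * u ^ c.2.2.2)).prod = 1 := fun t u => by
        rw [← prod_filter D hcov' (fun c => (c.2.1 : K) * (-t) ^ c.2.2.1 * u ^ c.2.2.2)]
        exact terms_eq_one D hr hs hne hneg t u
      generalize (D.commTerms r s).filter (fun c => !cov.contains c.1) = L at hl rel
      unfold shape at hl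
      split at hl
      · rename_i k₀ c i j
        split at hl
        · rename_i h
          simp only [Bool.and_eq_true, Bool.or_eq_true, beq_iff_eq] at h
          obtain ⟨hu, hij⟩ := h
          cases hl
          rw [List.mem_singleton] at hk
          subst hk
          intro t
          rcases hij with rfl | rfl
          · have := rel (-((c : K) * t)) 1
            simpa [← mul_assoc, unit_cast hu] using this
          · have := rel (-1) ((c : K) * t)
            simpa [← mul_assoc, unit_cast hu] using this
        · cases hl
      · rename_i k₀ c i j l₀ c' i' j'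
        split at hl
        · rename_i h
          simp only [Bool.and_eq_true, Bool.or_eq_true, beq_iff_eq] at h
          obtain ⟨⟨⟨⟨⟨hb, hu⟩, hu'⟩, rfl⟩, rfl⟩, hij⟩ := h
          cases hl
          obtain ⟨x, hx0, hx1⟩ := hbig hb
          -- two instances of the relation
          obtain ⟨e1, e2⟩ : (∀ a : K, y D k₀ ((c : K) * a) * y D l₀ ((c' : K) * a) = 1) ∧
              (∀ a : K, y D k₀ ((c : K) * a) * y D l₀ ((c' : K) * (x * a)) = 1) := by
            rcases hij with ⟨rfl, rfl⟩ | ⟨rfl, rfl⟩
            · refine ⟨fun a => ?_, fun a => ?_⟩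
              · simpa using rel (-1) a
              · have := rel (-x) (a * x⁻¹)
                rw [List.map_cons, List.map_cons, List.map_nil, List.prod_cons, List.prod_cons, List.prod_nil,
                  mul_one] at this
                rw [← this]
                congr 2 <;> simp <;> field_simp
            · refine ⟨fun a => ?_, fun a => ?_⟩
              · simpa using rel (-a) 1
              · have := rel (-(a * x⁻¹)) x
                rw [List.map_cons, List.map_cons, List.map_nil, List.prod_cons, List.prod_cons, List.prod_nil,
                  mul_one] at this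
                rw [← this]
                congr 2 <;> simp <;> field_simp
          intro t
          have hkl : k = k₀ ∨ k = l₀ := by simpa using hk
          by_cases hln : l₀ < D.nroots
          · have hl₀ : ∀ b : K, y D l₀ b = 1 := by
              intro b
              set a := (c' : K) * b * (x - 1)⁻¹ with ha
              have h1 := (e1 a).trans (e2 a).symm
              rw [mul_right_inj, show (c' : K) * (x * a) = (c' : K) * a + b by
                rw [ha]
                field_simp [sub_ne_zero.2 hx1]
                linear_combination (x - 1) * b * unit_cast (K := K) hu'] at h1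
              rw [← y_add D hln, left_eq_mul] at h1
              exact h1
            rcases hkl with rfl | rfl
            · have := e1 ((c : K) * t)
              rwa [hl₀, mul_one, ← mul_assoc, unit_cast hu, one_mul] at this
            · exact hl₀ t
          · rcases hkl with rfl | rfl
            · have hl₀ : ∀ b : K, y D l₀ b = 1 := fun b => by
                rw [y, ChevalleyDatum.scGen, ChevalleyDatum.stX, dif_neg hln, map_one, map_one]
              have := e1 ((c : K) * t)
              rwa [hl₀, mul_one, ← mul_assoc, unit_cast hu, one_mul] at this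
            · exact absurd hkn hln
        · cases hl
      · cases hl
    · exact hcov
  · exact hcov

theorem perfect_of_check {big : Bool} (hbig : big = true → ∃ x : K, x ≠ 0 ∧ x ≠ 1) (ps : List (ℕ × ℕ))
    (h : check D big ps = true) : commutator (D.SteinbergCover K) = ⊤ := by
  have hall : ∀ (ps : List (ℕ × ℕ)) (cov : List ℕ), (∀ k ∈ cov, k < D.nroots → ∀ t : K, y D k t = 1) →
      ∀ k ∈ ps.foldl (step D big) cov, k < D.nroots → ∀ t : K, y D k t = 1 := by
    intro ps
    induction ps with
    | nil => exact fun cov hc => hc
    | cons p ps ih => exact fun cov hc => ih _ (step_sound D hbig p hc)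
  simp only [check, List.all_eq_true, List.mem_range, List.contains_iff_mem] at h
  rw [eq_top_iff, ← PresentedGroup.closure_range_of, Subgroup.closure_le]
  rintro _ ⟨⟨r, t⟩, rfl⟩
  have := hall ps [] (by simp) r.1 (h r.1 r.2) r.2 t
  rw [y, ChevalleyDatum.scGen, ChevalleyDatum.stX, dif_pos r.2] at this
  rw [SetLike.mem_coe, ← Abelianization.ker_of, MonoidHom.mem_ker]
  exact this

end Cfsg.Agent.Lib.CoverPerfect
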